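import Mathlib
import Cfsg.Agent.Lib.Small.Basic
import Cfsg.Agent.Lib.Involutions.BrauerFowler

/-!
# Consequences of the Brauer-Fowler index bound
-/

set_option autoImplicit false

namespace Cfsg.Agent.Lib.Involutions.BrauerFowler2

open Cfsg.Agent.Lib.Involutions.Dihedral Cfsg.Agent.Lib.Involutions.Counting
open Cfsg.Agent.Lib.Involutions.ClassCard Cfsg.Agent.Lib.Involutions.BrauerFowler

universe u

variable {G : Type u} [Group G]

local notation "C[" x "]" => Subgroup.centralizer ({x} : Set G)

/-- The class of `t` consists of involutions, so `|G| ≤ |C(t)| * n`. -/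
theorem card_le_centralizer_mul_involutions [Finite G] (t : G) (ht : orderOf t = 2) :
    Nat.card G ≤ Nat.card C[t] * Nat.card {t : G // orderOf t = 2} := by
  have h := card_class_mul_centralizer t
  have hle : Nat.card {v : G // IsConj t v} ≤ Nat.card {t : G // orderOf t = 2} := by
    apply Nat.card_le_card_of_injective
      (fun v : {v : G // IsConj t v} => (⟨v.1, by rw [← isConj_orderOf v.2]; exact ht⟩ :
        {t : G // orderOf t = 2}))
    rintro ⟨a, ha⟩ ⟨b, hb⟩ hab
    have h0 : a = b := by simpa using hab
    exact Subtype.ext h0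
  calc Nat.card G = Nat.card {v : G // IsConj t v} * Nat.card C[t] := h.symm
    _ ≤ Nat.card {t : G // orderOf t = 2} * Nat.card C[t] := Nat.mul_le_mul_right _ hle
    _ = _ := mul_comm _ _

/-- The index bound in terms of an involution centralizer. -/
theorem index_lt_of_bound [Finite G] (t : G) (ht : orderOf t = 2) {m : ℕ}
    (hm : 2 * m * (Nat.card {t : G // orderOf t = 2}) ^ 2 <
      Nat.card G * (Nat.card G + Nat.card {t : G // orderOf t = 2})) :
    m < Nat.card C[t] ^ 2 := by
  by_contra hge
  push Not at hge
  have h1 := card_le_centralizer_mul_involutions t ht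
  set n := Nat.card {t : G // orderOf t = 2}
  set k := Nat.card C[t]
  set N := Nat.card G
  have hnN : n ≤ N := by
    exact Nat.card_le_card_of_injective (fun t => t.1) Subtype.val_injective
  have h2 : N * (N + n) ≤ 2 * N ^ 2 := by nlinarith
  have h3 : N ^ 2 ≤ (k * n) ^ 2 := Nat.pow_le_pow_left h1 2
  have h4 : (k * n) ^ 2 = k ^ 2 * n ^ 2 := by ring
  have h5 : k ^ 2 * n ^ 2 ≤ m * n ^ 2 := Nat.mul_le_mul_right _ hge
  nlinarith

lemma even_card_of_involution [Finite G] {t : G} (ht : orderOf t = 2) : Even (Nat.card G) := by
  rw [even_iff_two_dvd, ← ht]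
  exact orderOf_dvd_natCard t

/-- If the centre has odd order, involution centralizers are proper. -/
lemma centralizer_ne_top [Finite G] (hZ : Odd (Nat.card (Subgroup.center G))) {x : G}
    (hx : orderOf x = 2) : C[x] ≠ ⊤ := by
  intro htop
  have hxc : x ∈ Subgroup.center G := by
    rw [Subgroup.mem_center_iff]
    intro g
    have : g ∈ C[x] := by rw [htop]; trivial
    exact (Subgroup.mem_centralizer_singleton_iff.mp this)
  have h3 : orderOf (⟨x, hxc⟩ : Subgroup.center G) ∣ Nat.card (Subgroup.center G) :=
    orderOf_dvd_natCard _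
  have h4 : orderOf (⟨x, hxc⟩ : Subgroup.center G) = 2 := by
    rw [Subgroup.orderOf_mk]
    exact hx
  rw [h4] at h3
  obtain ⟨r, hr⟩ := hZ
  omega

/-- **Brauer-Fowler**: in a simple group the order is bounded in terms of an involution centralizer. -/
theorem card_le_factorial_of_simple [Finite G] [IsSimpleGroup G] (t : G) (ht : orderOf t = 2) :
    Nat.card G ≤ Nat.factorial (2 * (Nat.card C[t]) ^ 2) := by
  have hkpos : 0 < Nat.card C[t] := Nat.card_pos
  by_cases htop : C[t] = ⊤
  · have h1 : Nat.card C[t] = Nat.card G := by
      rw [htop]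
      exact Nat.card_congr (Subgroup.topEquiv.toEquiv)
    rw [h1]
    refine le_trans ?_ (Nat.self_le_factorial _)
    have hNpos : 0 < Nat.card G := Nat.card_pos
    nlinarith
  have hcenter : Subgroup.center G = ⊥ := by
    rcases IsSimpleGroup.eq_bot_or_eq_top_of_normal (Subgroup.center G) inferInstance with h | h
    · exact h
    · exfalso
      apply htop
      rw [eq_top_iff]
      intro g _
      have hg : g ∈ Subgroup.center G := by rw [h]; trivial
      rw [Subgroup.mem_centralizer_singleton_iff]
      exact (Subgroup.mem_center_iff.mp hg t).symm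
  have hZ : Odd (Nat.card (Subgroup.center G)) := by
    rw [hcenter]
    simp
  have heven := even_card_of_involution ht
  obtain ⟨H, hH, hbound⟩ := index_bound heven hZ
  have hinj := Small.Basic.toPermHom_injective H hH
  have hle : Nat.card G ≤ Nat.factorial H.index := by
    have h1 := Nat.card_le_card_of_injective _ hinj
    rw [Nat.card_perm] at h1
    exact h1
  rcases hbound with h2 | hb
  · rw [h2] at hle
    refine le_trans hle ?_
    have : (2 : ℕ).factorial ≤ (2 * Nat.card C[t] ^ 2).factorial := by
      apply Nat.factorial_le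
      have : 0 < Nat.card C[t] ^ 2 := by positivity
      omega
    exact this
  · have hlt := index_lt_of_bound t ht hb
    refine le_trans hle (Nat.factorial_le ?_)
    omega

/-- **Brauer-Fowler**: a group of even order greater than 2 has a proper subgroup `H` with
`|G| < |H|^3`. -/
theorem exists_large_subgroup_aux :
    ∀ (N : ℕ) (G : Type u) [Group G] [Finite G], Nat.card G = N → Even N → 2 < N →
      ∃ H : Subgroup G, H ≠ ⊤ ∧ N < (Nat.card H) ^ 3 := by
  intro N
  induction N using Nat.strong_induction_on with
  | _ N ih =>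
  intro G _ _ hN heven hgt
  by_cases hZ : Odd (Nat.card (Subgroup.center G))
  · -- odd centre
    have heven' : Even (Nat.card G) := hN ▸ heven
    obtain ⟨H, hH, hbound⟩ := index_bound heven' hZ
    have hidx := H.card_mul_index
    rcases hbound with h2 | hb
    · refine ⟨H, hH, ?_⟩
      rw [h2, hN] at hidx
      obtain ⟨q, hq⟩ : ∃ q, Nat.card H = q := ⟨_, rfl⟩
      rw [hq] at hidx ⊢
      have hq2 : 2 ≤ q := by omega
      nlinarith [sq_nonneg q]
    · obtain ⟨t, ht⟩ : ∃ t : G, orderOf t = 2 := by
        have hdvd : 2 ∣ Nat.card G := even_iff_two_dvd.mp heven'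
        have : Fact (Nat.Prime 2) := ⟨Nat.prime_two⟩
        exact exists_prime_orderOf_dvd_card' 2 hdvd
      by_cases hcube : N < Nat.card (Subgroup.centralizer ({t} : Set G)) ^ 3
      · exact ⟨_, centralizer_ne_top hZ ht, hcube⟩
      · push Not at hcube
        refine ⟨H, hH, ?_⟩
        have hlt := index_lt_of_bound t ht hb
        set k := Nat.card (Subgroup.centralizer ({t} : Set G))
        set m := H.index
        rw [hN] at hidx
        by_contra hle
        push Not at hle
        have h1 : m ^ 3 < (k ^ 2) ^ 3 := Nat.pow_lt_pow_left hlt (by norm_num)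
        have h2 : (k ^ 2) ^ 3 = (k ^ 3) ^ 2 := by ring
        have h3 : (k ^ 3) ^ 2 ≤ N ^ 2 := Nat.pow_le_pow_left hcube 2
        have h4 : N ^ 3 = (Nat.card H) ^ 3 * m ^ 3 := by
          rw [← hidx]; ring
        have h5 : (Nat.card H) ^ 3 * m ^ 3 ≤ N * m ^ 3 := Nat.mul_le_mul_right _ hle
        have hNpos : 0 < N := by omega
        have h6 : N * m ^ 3 < N * N ^ 2 := Nat.mul_lt_mul_of_pos_left (by omega) hNpos
        have h7 : N * N ^ 2 = N ^ 3 := by ring
        omega
  · -- central involution
    rw [Nat.not_odd_iff_even] at hZ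
    obtain ⟨z₀, hz₀⟩ : ∃ z : Subgroup.center G, orderOf z = 2 := by
      have hdvd : 2 ∣ Nat.card (Subgroup.center G) := even_iff_two_dvd.mp hZ
      have : Fact (Nat.Prime 2) := ⟨Nat.prime_two⟩
      exact exists_prime_orderOf_dvd_card' 2 hdvd
    obtain ⟨z, hzc, hz⟩ : ∃ z : G, z ∈ Subgroup.center G ∧ orderOf z = 2 :=
      ⟨z₀.1, z₀.2, by rwa [Subgroup.orderOf_coe]⟩
    let Z : Subgroup G := Subgroup.zpowers z
    have hZcard : Nat.card Z = 2 := by
      rw [Nat.card_zpowers, hz]
    have hZnormal : Z.Normal := by
      constructor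
      intro n hn g
      obtain ⟨k, rfl⟩ := Subgroup.mem_zpowers_iff.mp hn
      have h1 : g * z ^ k * g⁻¹ = z ^ k := by
        have : z ^ k ∈ Subgroup.center G := zpow_mem hzc k
        rw [(Subgroup.mem_center_iff.mp this g)]
        group
      rw [h1]
      exact Subgroup.zpow_mem_zpowers z k
    have hidxZ := Z.card_mul_index
    rw [hZcard, hN] at hidxZ
    have hQcard : Nat.card (G ⧸ Z) = Z.index := rfl
    by_cases h4 : N = 4
    · refine ⟨Z, ?_, ?_⟩
      · intro htop
        have : Nat.card Z = N := by
          rw [htop, ← hN]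
          exact Nat.card_congr (Subgroup.topEquiv.toEquiv)
        omega
      · rw [hZcard, h4]
        norm_num
    by_cases hQeven : Even Z.index
    · -- quotient even: induction
      have hQgt : 2 < Z.index := by
        obtain ⟨r, hr⟩ := hQeven
        omega
      have hQlt : Z.index < N := by omega
      obtain ⟨K, hK, hKc⟩ := ih Z.index hQlt (G ⧸ Z) rfl hQeven hQgt
      let H : Subgroup G := K.comap (QuotientGroup.mk' Z)
      have hsurj : Function.Surjective (QuotientGroup.mk' Z) := QuotientGroup.mk'_surjective Z
      have hHidx : H.index = K.index := Subgroup.index_comap_of_surjective K hsurj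
      have h1 := H.card_mul_index
      have h2 := K.card_mul_index
      rw [hQcard] at h2
      rw [hHidx, hN] at h1
      refine ⟨H, ?_, ?_⟩
      · intro htop
        apply hK
        have : H.index = 1 := by rw [htop]; simp
        rw [hHidx] at this
        exact Subgroup.index_eq_one.mp this
      · have hKidx : 0 < K.index := by
          rw [Nat.pos_iff_ne_zero]
          intro h0
          rw [h0] at h2
          omega
        have h3 : Nat.card H = 2 * Nat.card K := by
          apply Nat.eq_of_mul_eq_mul_right hKidx
          rw [h1]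
          nlinarith
        rw [h3, ← hidxZ]
        have h5 : 0 < Nat.card K := Nat.card_pos
        nlinarith [Nat.pow_le_pow_left h5 3]
    · -- quotient odd: a complement of `Z` has index two
      rw [Nat.not_even_iff_odd] at hQeven
      have hcop : Nat.Coprime (Nat.card Z) Z.index := by
        rw [hZcard]
        exact Nat.coprime_two_left.mpr hQeven
      obtain ⟨K, hK⟩ := Subgroup.exists_right_complement'_of_coprime hcop
      have hKc : Nat.card Z * Nat.card K = Nat.card G := hK.card_mul_card
      rw [hZcard, hN] at hKc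
      have hq : Nat.card K = Z.index := by omega
      have hq3 : 3 ≤ Nat.card K := by
        obtain ⟨r, hr⟩ := hQeven
        omega
      refine ⟨K, ?_, ?_⟩
      · intro htop
        have : Nat.card K = N := by
          rw [htop, ← hN]
          exact Nat.card_congr (Subgroup.topEquiv.toEquiv)
        omega
      · rw [← hKc]
        nlinarith [Nat.pow_le_pow_left hq3 2]

/-- **Brauer-Fowler**: a group of even order greater than 2 has a proper subgroup `H` with
`|G| < |H|^3`. -/
theorem exists_large_subgroup [Finite G] (heven : Even (Nat.card G)) (hgt : 2 < Nat.card G) :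
    ∃ H : Subgroup G, H ≠ ⊤ ∧ Nat.card G < (Nat.card H) ^ 3 :=
  exists_large_subgroup_aux _ G rfl heven hgt

set_option maxRecDepth 100000 in
/-- `A₅` has fifteen involutions. -/
theorem a5_involution_count :
    (Finset.univ.filter (fun σ : Equiv.Perm (Fin 5) =>
      σ * σ = 1 ∧ σ ≠ 1 ∧ Equiv.Perm.sign σ = 1)).card = 15 := by
  decide +kernel

/-- Involutions of a group embedded in `A₅`: at most 15 of them. -/
theorem card_involutions_le_of_embed {φ : G →* alternatingGroup (Fin 5)}
    (hφ : Function.Injective φ) [Finite G] : Nat.card {t : G // orderOf t = 2} ≤ 15 := by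
  classical
  have hf := a5_involution_count
  rw [← hf, ← Fintype.card_subtype, ← Nat.card_eq_fintype_card]
  refine Nat.card_le_card_of_injective
    (fun t => ⟨(φ t.1 : Equiv.Perm (Fin 5)), ?_, ?_, ?_⟩) ?_
  · have h1 : t.1 * t.1 = 1 := mul_self_of_sq (sq_of_order_two t.2)
    have h2 : φ t.1 * φ t.1 = 1 := by rw [← map_mul, h1, map_one]
    exact_mod_cast congrArg Subtype.val h2
  · intro h
    apply ne_one_of_order_two t.2
    apply hφ
    rw [map_one]
    exact Subtype.ext h
  · exact (φ t.1).2
  · intro a b hab
    have h1 : ((φ a.1 : alternatingGroup (Fin 5)) : Equiv.Perm (Fin 5)) = φ b.1 := by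
      simpa using hab
    exact Subtype.ext (hφ (Subtype.ext h1))

private lemma even_divisors_sixty {N : ℕ} (h : N ∣ 60) (heven : Even N) (hgt : 2 < N) :
    N = 4 ∨ N = 6 ∨ N = 10 ∨ N = 12 ∨ N = 20 ∨ N = 30 ∨ N = 60 := by
  have hle : N ≤ 60 := Nat.le_of_dvd (by norm_num) h
  rw [even_iff_two_dvd] at heven
  interval_cases N <;> omega

/-- A proper subgroup of given prime-power order in a non-abelian simple group. -/
private lemma dvd_factorial_of_pow [Finite G] [IsSimpleGroup G] (hG : ¬ IsMulCommutative G)
    (p k M : ℕ) [Fact p.Prime] (hdvd : p ^ k ∣ Nat.card G) (hM : Nat.card G = p ^ k * M)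
    (hM1 : 1 < M) : 2 * Nat.card G ∣ M.factorial := by
  obtain ⟨K, hK⟩ := Sylow.exists_subgroup_card_pow_prime p hdvd
  have hidx := K.card_mul_index
  have hMidx : K.index = M := by
    have hpos : 0 < p ^ k := pow_pos (Fact.out : p.Prime).pos k
    rw [hK, hM] at hidx
    exact Nat.eq_of_mul_eq_mul_left hpos hidx
  have hne : K ≠ ⊤ := by
    intro htop
    have : K.index = 1 := by rw [htop]; simp
    omega
  have := Small.Basic.two_mul_card_dvd_factorial_index hG K hne
  rwa [hMidx] at this

/-- **Brauer-Fowler**: a simple group of even order greater than two has fewer than `|G|/3`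
involutions. -/
theorem three_mul_involutions_lt [Finite G] [IsSimpleGroup G] (heven : Even (Nat.card G))
    (hgt : 2 < Nat.card G) : 3 * Nat.card {t : G // orderOf t = 2} < Nat.card G := by
  by_contra hle
  push Not at hle
  have hnp : ¬ (Nat.card G).Prime := by
    intro hp
    have := hp.eq_two_or_odd'
    rcases this with h | h
    · omega
    · exact (Nat.not_even_iff_odd.mpr h) heven
  have hG : ¬ IsMulCommutative G := Small.Basic.not_comm_of_not_prime hnp
  have hcenter : Subgroup.center G = ⊥ := by
    rcases IsSimpleGroup.eq_bot_or_eq_top_of_normal (Subgroup.center G) inferInstance with h | h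
    · exact h
    · exfalso
      apply hG
      refine ⟨⟨fun a b => ?_⟩⟩
      have ha : a ∈ Subgroup.center G := by rw [h]; trivial
      exact (Subgroup.mem_center_iff.mp ha b).symm
  have hZ : Odd (Nat.card (Subgroup.center G)) := by
    rw [hcenter]
    simp
  obtain ⟨H, hH, hb⟩ := index_bound heven hZ
  have hdvd := Small.Basic.two_mul_card_dvd_factorial_index hG H hH
  rcases hb with h2 | hb
  · rw [h2] at hdvd
    have := Nat.le_of_dvd (by norm_num) hdvd
    simp at this
    omega
  have hm6 : H.index < 6 := by
    by_contra hm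
    push Not at hm
    set n := Nat.card {t : G // orderOf t = 2}
    set N := Nat.card G
    have h1 : 2 * 6 * n ^ 2 ≤ 2 * H.index * n ^ 2 :=
      Nat.mul_le_mul_right _ (Nat.mul_le_mul_left _ hm)
    have h2 : N * (N + n) ≤ (3 * n) * (3 * n + n) :=
      Nat.mul_le_mul hle (Nat.add_le_add_right hle n)
    nlinarith
  have hN60 : Nat.card G ∣ 60 := by
    have h1 : H.index.factorial ∣ (5 : ℕ).factorial :=
      Nat.factorial_dvd_factorial (by omega)
    have h2 := hdvd.trans h1
    have h3 : (5 : ℕ).factorial = 2 * 60 := by norm_num [Nat.factorial]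
    rw [h3] at h2
    exact Nat.dvd_of_mul_dvd_mul_left (by norm_num) h2
  -- the index is 5 when the order is divisible by 5 and not ...
  have hindex5 : 30 ≤ Nat.card G → H.index = 5 := by
    intro h30
    have h1 : Nat.card G = 30 ∨ Nat.card G = 60 := by
      rcases even_divisors_sixty hN60 heven hgt with h | h | h | h | h | h | h <;> omega
    have hm : H.index ≤ 5 := by omega
    by_contra hne
    have hm4 : H.index ≤ 4 := by omega
    have h2 : H.index.factorial ∣ (4 : ℕ).factorial := Nat.factorial_dvd_factorial hm4
    have h3 := hdvd.trans h2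
    have h4 : (4 : ℕ).factorial = 24 := by norm_num [Nat.factorial]
    rw [h4] at h3
    rcases h1 with h | h <;> rw [h] at h3 <;> norm_num at h3
  have hembed : 30 ≤ Nat.card G → ∃ φ : G →* alternatingGroup (Fin 5), Function.Injective φ := by
    intro h30
    exact Small.Basic.exists_embed_alt_of_hom hG (MulAction.toPermHom G (G ⧸ H))
      (Small.Basic.toPermHom_injective H hH) 5 (hindex5 h30)
  rcases even_divisors_sixty hN60 heven hgt with h | h | h | h | h | h | h
  · have : Fact (Nat.Prime 2) := ⟨Nat.prime_two⟩
    have := dvd_factorial_of_pow hG 2 1 2 (by rw [h]; norm_num) (by rw [h]; norm_num) (by norm_num)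
    rw [h] at this
    norm_num [Nat.factorial] at this
  · have : Fact (Nat.Prime 3) := ⟨Nat.prime_three⟩
    have := dvd_factorial_of_pow hG 3 1 2 (by rw [h]; norm_num) (by rw [h]; norm_num) (by norm_num)
    rw [h] at this
    norm_num [Nat.factorial] at this
  · have : Fact (Nat.Prime 5) := ⟨Nat.prime_five⟩
    have := dvd_factorial_of_pow hG 5 1 2 (by rw [h]; norm_num) (by rw [h]; norm_num) (by norm_num)
    rw [h] at this
    norm_num [Nat.factorial] at this
  · have : Fact (Nat.Prime 2) := ⟨Nat.prime_two⟩
    have := dvd_factorial_of_pow hG 2 2 3 (by rw [h]; norm_num) (by rw [h]; norm_num) (by norm_num)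
    rw [h] at this
    norm_num [Nat.factorial] at this
  · have : Fact (Nat.Prime 5) := ⟨Nat.prime_five⟩
    have := dvd_factorial_of_pow hG 5 1 4 (by rw [h]; norm_num) (by rw [h]; norm_num) (by norm_num)
    rw [h] at this
    norm_num [Nat.factorial] at this
  · -- order 30: the image is a subgroup of index two of the simple group `A₅`.
    obtain ⟨φ, hφ⟩ := hembed (by omega)
    have hA : IsSimpleGroup (alternatingGroup (Fin 5)) :=
      alternatingGroup.isSimpleGroup (by simp)
    have hcardA : Nat.card (alternatingGroup (Fin 5)) = 60 := by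
      have h2 := two_mul_nat_card_alternatingGroup (α := Fin 5)
      rw [Nat.card_perm, Nat.card_fin] at h2
      have h3 : (5 : ℕ).factorial = 2 * 60 := by norm_num [Nat.factorial]
      rw [h3] at h2
      exact Nat.eq_of_mul_eq_mul_left (by norm_num) h2
    have hAnc : ¬ IsMulCommutative (alternatingGroup (Fin 5)) :=
      Small.Basic.not_comm_of_not_prime (by rw [hcardA]; norm_num)
    have hcardK : Nat.card φ.range = 30 := by
      rw [← h]
      exact Nat.card_congr (MonoidHom.ofInjective hφ).toEquiv.symm
    have hidx := φ.range.card_mul_index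
    rw [hcardK, hcardA] at hidx
    have hidx2 : φ.range.index = 2 := by omega
    have hneK : φ.range ≠ ⊤ := by
      intro htop
      rw [htop] at hidx2
      simp at hidx2
    have := Small.Basic.two_mul_card_dvd_factorial_index hAnc φ.range hneK
    rw [hidx2, hcardA] at this
    norm_num [Nat.factorial] at this
  · obtain ⟨φ, hφ⟩ := hembed (by omega)
    have := card_involutions_le_of_embed hφ
    omega

end Cfsg.Agent.Lib.Involutions.BrauerFowler2
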